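-- Team project CHO (S1083): package [FIN-B2] (helper46).
import Mathlib
import Cfsg.Agent.Lib.Helper99.CHO.Defs2

set_option autoImplicit false
open scoped MatrixGroups
open Matrix

namespace Cfsg.Agent.Lib.Helper46.CHO
open Cfsg.Agent.Lib.Helper99.CHO

universe u

section
variable {K : Type u} [Field K]

/-- The polar form of `quadFormOdd 2`. -/
def polB (u v : Unit ⊕ (Fin 2 ⊕ Fin 2) → K) : K :=
  2 * u (Sum.inl ()) * v (Sum.inl ()) +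
    ∑ i : Fin 2, (u (Sum.inr (Sum.inl i)) * v (Sum.inr (Sum.inr i)) +
      v (Sum.inr (Sum.inl i)) * u (Sum.inr (Sum.inr i)))

theorem polB_eq (u v : Unit ⊕ (Fin 2 ⊕ Fin 2) → K) :
    polB u v = Cfsg.quadFormOdd 2 K (u + v) - Cfsg.quadFormOdd 2 K u
      - Cfsg.quadFormOdd 2 K v := by
  simp only [polB, Cfsg.quadFormOdd, Pi.add_apply, Fin.sum_univ_two]
  ring

theorem iso_quadB {g : GL (Unit ⊕ (Fin 2 ⊕ Fin 2)) K}
    (hg : g ∈ Cfsg.isometryGroup K (Cfsg.quadFormOdd 2 K)) (u : Unit ⊕ (Fin 2 ⊕ Fin 2) → K) :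
    Cfsg.quadFormOdd 2 K
        ((g : Matrix (Unit ⊕ (Fin 2 ⊕ Fin 2)) (Unit ⊕ (Fin 2 ⊕ Fin 2)) K) *ᵥ u)
      = Cfsg.quadFormOdd 2 K u := hg u u

theorem iso_polB {g : GL (Unit ⊕ (Fin 2 ⊕ Fin 2)) K}
    (hg : g ∈ Cfsg.isometryGroup K (Cfsg.quadFormOdd 2 K))
    (u v : Unit ⊕ (Fin 2 ⊕ Fin 2) → K) :
    polB ((g : Matrix (Unit ⊕ (Fin 2 ⊕ Fin 2)) (Unit ⊕ (Fin 2 ⊕ Fin 2)) K) *ᵥ u)
      ((g : Matrix (Unit ⊕ (Fin 2 ⊕ Fin 2)) (Unit ⊕ (Fin 2 ⊕ Fin 2)) K) *ᵥ v) = polB u v := by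
  rw [polB_eq, polB_eq, ← Matrix.mulVec_add, iso_quadB hg, iso_quadB hg, iso_quadB hg]

theorem polB_eB (w : Unit ⊕ (Fin 2 ⊕ Fin 2) → K) (c : Fin 2) :
    polB w (eB K c) = w (Sum.inr (Sum.inr c)) := by
  simp [polB, eB, Pi.single_apply]

theorem polB_fB (w : Unit ⊕ (Fin 2 ⊕ Fin 2) → K) (c : Fin 2) :
    polB w (fB K c) = w (Sum.inr (Sum.inl c)) := by
  simp [polB, fB, Pi.single_apply]

theorem polB_smul_right (a : K) (u v : Unit ⊕ (Fin 2 ⊕ Fin 2) → K) :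
    polB u (a • v) = a * polB u v := by
  simp only [polB, Pi.smul_apply, smul_eq_mul, Fin.sum_univ_two]
  ring

theorem mulVec_single_applyB (M : Matrix (Unit ⊕ (Fin 2 ⊕ Fin 2)) (Unit ⊕ (Fin 2 ⊕ Fin 2)) K)
    (i j : Unit ⊕ (Fin 2 ⊕ Fin 2)) : (M *ᵥ Pi.single j (1 : K)) i = M i j := by
  simp

/-- Rows and columns of a pair on which `g` is monomial. -/
theorem mono_pairB {g : GL (Unit ⊕ (Fin 2 ⊕ Fin 2)) K}
    (hg : g ∈ Cfsg.isometryGroup K (Cfsg.quadFormOdd 2 K)) (c : Fin 2) (a : K) (ha : a ≠ 0)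
    (he : (g : Matrix (Unit ⊕ (Fin 2 ⊕ Fin 2)) (Unit ⊕ (Fin 2 ⊕ Fin 2)) K) *ᵥ eB K c
      = a • eB K c)
    (hf : (g : Matrix (Unit ⊕ (Fin 2 ⊕ Fin 2)) (Unit ⊕ (Fin 2 ⊕ Fin 2)) K) *ᵥ fB K c
      = a⁻¹ • fB K c) :
    (∀ i, i ≠ Sum.inr (Sum.inl c) →
      (g : Matrix (Unit ⊕ (Fin 2 ⊕ Fin 2)) (Unit ⊕ (Fin 2 ⊕ Fin 2)) K) i (Sum.inr (Sum.inl c))
        = 0) ∧
    (∀ i, i ≠ Sum.inr (Sum.inr c) →
      (g : Matrix (Unit ⊕ (Fin 2 ⊕ Fin 2)) (Unit ⊕ (Fin 2 ⊕ Fin 2)) K) i (Sum.inr (Sum.inr c))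
        = 0) ∧
    (∀ j, j ≠ Sum.inr (Sum.inl c) →
      (g : Matrix (Unit ⊕ (Fin 2 ⊕ Fin 2)) (Unit ⊕ (Fin 2 ⊕ Fin 2)) K) (Sum.inr (Sum.inl c)) j
        = 0) ∧
    (∀ j, j ≠ Sum.inr (Sum.inr c) →
      (g : Matrix (Unit ⊕ (Fin 2 ⊕ Fin 2)) (Unit ⊕ (Fin 2 ⊕ Fin 2)) K) (Sum.inr (Sum.inr c)) j
        = 0) := by
  refine ⟨?_, ?_, ?_, ?_⟩
  · intro i hi
    have h := congrFun he i
    rw [eB, mulVec_single_applyB] at h
    rw [h]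
    simp [hi]
  · intro i hi
    have h := congrFun hf i
    rw [fB, mulVec_single_applyB] at h
    rw [h]
    simp [hi]
  · intro j hj
    have h := iso_polB hg (Pi.single j 1) (fB K c)
    rw [hf, polB_smul_right, polB_fB, polB_fB, mulVec_single_applyB] at h
    have h0 : (Pi.single j (1 : K) : Unit ⊕ (Fin 2 ⊕ Fin 2) → K) (Sum.inr (Sum.inl c)) = 0 := by
      simp [Ne.symm hj]
    rw [h0] at h
    rcases mul_eq_zero.mp h with h | h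
    · exact absurd h (inv_ne_zero ha)
    · exact h
  · intro j hj
    have h := iso_polB hg (Pi.single j 1) (eB K c)
    rw [he, polB_smul_right, polB_eB, polB_eB, mulVec_single_applyB] at h
    have h0 : (Pi.single j (1 : K) : Unit ⊕ (Fin 2 ⊕ Fin 2) → K) (Sum.inr (Sum.inr c)) = 0 := by
      simp [Ne.symm hj]
    rw [h0] at h
    rcases mul_eq_zero.mp h with h | h
    · exact absurd h ha
    · exact h

end

/-- [FIN-B2] -/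
theorem pkgFinB2 : PkgFinB2.{u} := by
  intro K _ g hg hm
  refine ⟨hg, ?_⟩
  intro i j hij
  have hlt : ∀ c : Fin 2, c.val < 2 := fun c => c.isLt
  rcases j with j | c | c
  · rcases i with i | d | d
    · exact absurd rfl hij
    · obtain ⟨a, ha, he, hf⟩ := hm d (hlt d)
      exact (mono_pairB hg d a ha he hf).2.2.1 _ (Ne.symm hij)
    · obtain ⟨a, ha, he, hf⟩ := hm d (hlt d)
      exact (mono_pairB hg d a ha he hf).2.2.2 _ (Ne.symm hij)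
  · obtain ⟨a, ha, he, hf⟩ := hm c (hlt c)
    exact (mono_pairB hg c a ha he hf).1 i hij
  · obtain ⟨a, ha, he, hf⟩ := hm c (hlt c)
    exact (mono_pairB hg c a ha he hf).2.1 i hij

end Cfsg.Agent.Lib.Helper46.CHO
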